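import Cfsg.Agent.Lib.Helper90.Sp.Defs
import Cfsg.Agent.Lib.Helper60.Asch.K1

set_option autoImplicit false

namespace Cfsg.Agent.Lib.Helper1.Sp

open Cfsg Cfsg.Geo Matrix Cfsg.Agent.Lib.Helper13.Asch Cfsg.Agent.Lib.Helper90.Sp
open Cfsg.Agent.Lib.Helper96.Asch Cfsg.Agent.Lib.Helper60.Asch
open scoped Kronecker MatrixGroups commutatorElement

variable {ι : Type} [Fintype ι] [DecidableEq ι] {F : Type*} [Field F]

/-- K1a -/
theorem residual_core [Finite F] {H N : Subgroup (GL ι F)} (hQP : QP H) (h : MinNormal H N)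
    (hperf : ¬ ⁅N, N⁆ ≤ scalars ι F)
    (hsimple : ∀ L : Subgroup (GL ι F), H ⊓ scalars ι F ≤ L → L ≤ N → Nrm N L →
      L = H ⊓ scalars ι F ∨ L = N) :
    Nrm H ⁅N, N⁆ ∧ ⁅N, N⁆ ≤ H ∧ env ⁅N, N⁆ = ⊤ ∧
      ((∀ F₀ : Subfield F, F₀ ≠ ⊤ → ¬ RealisableOver F₀ (matrixSet ⁅N, N⁆)) →
        IsResidualCore H ⁅N, N⁆) := by
  classical
  have hne : Nonempty ι := by
    by_contra hemp
    rw [not_nonempty_iff] at hemp
    apply hperf
    intro g _
    have : g = 1 := by
      apply Units.ext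
      ext i
      exact (hemp.false i).elim
    rw [this]
    exact one_mem _
  obtain ⟨Z, hZdef⟩ : ∃ Z, Z = H ⊓ scalars ι F := ⟨_, rfl⟩
  rw [← hZdef] at hsimple
  have hZsc : Z ≤ scalars ι F := hZdef ▸ inf_le_right
  have hZN : Z ≤ N := hZdef ▸ h.sc_le
  obtain ⟨P, hPdef⟩ : ∃ P, P = ⁅N, N⁆ := ⟨_, rfl⟩
  rw [← hPdef] at hperf ⊢
  have hNN : Nrm N N := fun g hg x hx => N.mul_mem (N.mul_mem hg hx) (N.inv_mem hg)
  have hPN : P ≤ N := by
    rw [hPdef, Subgroup.commutator_le]
    intro a ha b hb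
    rw [commutatorElement_def]
    exact N.mul_mem (N.mul_mem (N.mul_mem ha hb) (N.inv_mem ha)) (N.inv_mem hb)
  have hPH : P ≤ H := hPN.trans h.le
  have hnrmP : Nrm H P := hPdef ▸ nrm_commutator h.nrm
  have hnrmNP : Nrm N P := hPdef ▸ nrm_commutator hNN
  have hPZ : P ⊔ Z = N := by
    rcases hsimple (P ⊔ Z) le_sup_right (sup_le hPN hZN)
      (nrm_sup hnrmNP (nrm_of_le_scalars N hZsc)) with h1 | h1
    · exact (hperf ((le_sup_left.trans h1.le).trans hZsc)).elim
    · exact h1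
  have hPP : ⁅P, P⁆ = P := by
    rw [← commutator_sup_scalars hZsc, hPZ, hPdef]
  have henv : env P = ⊤ := by
    rcases hQP P hPH hnrmP with h1 | h1
    · exact (hperf h1).elim
    · exact h1
  refine ⟨hnrmP, hPH, henv, fun hsub => ?_⟩
  have core : ∀ M : Subgroup (GL ι F), M ≤ P → Nrm P M → M ≤ scalars ι F ∨ M = P := by
    intro M hMP hnM
    have hnN : Nrm N (M ⊔ Z) := by
      rw [← hPZ]
      exact nrm_sup (nrm_sup_left hZsc hnM) (nrm_of_le_scalars _ hZsc)
    rcases hsimple (M ⊔ Z) le_sup_right (sup_le (hMP.trans hPN) hZN) hnN with h1 | h1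
    · left
      exact (le_sup_left.trans h1.le).trans hZsc
    · right
      apply le_antisymm hMP
      have h2 : P = ⁅M, M⁆ := by
        rw [hPdef, ← h1, commutator_sup_scalars hZsc]
      rw [h2, Subgroup.commutator_le]
      intro a ha b hb
      rw [commutatorElement_def]
      exact M.mul_mem (M.mul_mem (M.mul_mem ha hb) (M.inv_mem ha)) (M.inv_mem hb)
  refine ⟨hPH, hnrmP, hPP, ?_, ?_, ?_, absIrr_of_env_top henv, hsub⟩
  · exact simple_quot P (scalars ι F) hperf core
  · intro hc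
    apply hperf
    rw [← hPP]
    exact commutator_le_of_comm_quot P (scalars ι F) hc
  · intro g hg hgP
    have h1 : P ≤ Subgroup.centralizer {g} := by
      rw [← hPP, Subgroup.commutator_le]
      intro a ha b hb
      rw [Subgroup.mem_centralizer_singleton_iff]
      have ea : g * a * g⁻¹ = a * (g * a * g⁻¹ * a⁻¹) := by
        rw [← scalar_commute (hgP a ha) a]
        group
      have eb : g * b * g⁻¹ = b * (g * b * g⁻¹ * b⁻¹) := by
        rw [← scalar_commute (hgP b hb) b]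
        group
      have h3 : g * ⁅a, b⁆ * g⁻¹ = ⁅a, b⁆ := by
        have h4 : g * ⁅a, b⁆ * g⁻¹ = ⁅g * a * g⁻¹, g * b * g⁻¹⁆ := by
          rw [commutatorElement_def, commutatorElement_def]
          group
        rw [h4, ea, eb, commutator_scalar_mul (hgP a ha) (hgP b hb)]
      rw [mul_inv_eq_iff_eq_mul] at h3
      exact h3.symm
    obtain ⟨c, hc⟩ := scalar_of_commute henv g.1 (by
      intro x hx
      have h2 := h1 hx
      rw [Subgroup.mem_centralizer_singleton_iff] at h2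
      rw [← Units.val_mul, ← Units.val_mul, h2])
    rw [mem_scalars_iff]
    have hne0 : c ≠ 0 := by
      intro h0
      rw [h0, zero_smul] at hc
      exact g.ne_zero hc
    exact ⟨Units.mk0 c hne0, hc⟩

end Cfsg.Agent.Lib.Helper1.Sp
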