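import Cfsg.Agent.Lib.Helper90.Sp.Defs
import Cfsg.Agent.Lib.Helper96.Asch.L0e
import Cfsg.Agent.Lib.Helper58.Asch.L0a
import Cfsg.Agent.Lib.Helper60.Asch.G1

set_option autoImplicit false

namespace Cfsg.Agent.Lib.Helper1.Sp

open Cfsg Cfsg.Geo Matrix Cfsg.Agent.Lib.Helper13.Asch Cfsg.Agent.Lib.Helper90.Sp
open scoped Kronecker MatrixGroups

variable {ι : Type} [Fintype ι] [DecidableEq ι] {F : Type*} [Field F]

/-- Z0a -/
theorem two_eq_zero_iff [Fintype F] : (2 : F) = 0 ↔ ¬ Odd (Fintype.card F) := by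
  rw [Nat.not_odd_iff_even, Nat.even_iff, ← FiniteField.even_card_iff_char_two]
  constructor
  · intro h
    have : (((2 : ℕ) : F)) = 0 := by exact_mod_cast h
    have h2 := (ringChar.spec F 2).1 this
    rcases (Nat.dvd_prime Nat.prime_two).1 h2 with h3 | h3
    · exact absurd h3 (CharP.ringChar_ne_one)
    · exact h3
  · intro h
    have := (ringChar.spec F 2).2 (by rw [h])
    exact_mod_cast this

/-- Z0b -/
theorem SpCls.of_hasQuad [Fintype F] {f : (ι → F) → (ι → F) → F} {H : Subgroup (GL ι F)}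
    (h2 : ¬ Odd (Fintype.card F)) (h : HasQuad f H) : SpCls f H := by
  obtain ⟨Q, hQ, hp, hfix⟩ := h
  refine Or.inr (Or.inr (Or.inr (Or.inr (Or.inr (Or.inr (Or.inl ⟨Q, h2, hQ, hp, ?_⟩))))))
  intro g hg
  refine ⟨1, fun v => ?_⟩
  rw [Units.val_one, one_mul]
  exact hfix _ ⟨g, hg, rfl⟩ v

/-- Z0c -/
theorem env_adjClosed {f : (ι → F) → (ι → F) → F} (hb : IsBilinearForm f) {N : Subgroup (GL ι F)}
    (hN : FixesForm (matrixSet N) f) : IsAdjointClosedFor f (env N) := by
  intro k hk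
  have hk' : k ∈ Submodule.span F (matrixSet N) := by
    rw [← Cfsg.Agent.Lib.Helper96.Asch.env_eq_span]; exact hk
  have hz : ∀ v : ι → F, f 0 v = 0 := by
    intro v
    have := hb.smul_left 0 0 v
    simpa using this
  have hz' : ∀ v : ι → F, f v 0 = 0 := by
    intro v
    have := hb.smul_right 0 v 0
    simpa using this
  induction hk' using Submodule.span_induction with
  | mem x hx =>
    obtain ⟨g, hg, rfl⟩ := hx
    refine ⟨((g⁻¹ : GL ι F) : Matrix ι ι F), Algebra.subset_adjoin ⟨g⁻¹, inv_mem hg, rfl⟩, ?_⟩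
    intro u v
    have h1 := hN _ ⟨g, hg, rfl⟩ u (((g⁻¹ : GL ι F) : Matrix ι ι F) *ᵥ v)
    have h2 : (g : Matrix ι ι F) *ᵥ (((g⁻¹ : GL ι F) : Matrix ι ι F) *ᵥ v) = v := by
      rw [Matrix.mulVec_mulVec, ← Units.val_mul, mul_inv_cancel, Units.val_one, Matrix.one_mulVec]
    simp only at h1
    rw [h2] at h1
    exact h1
  | zero =>
    refine ⟨0, zero_mem _, fun u v => ?_⟩
    rw [Matrix.zero_mulVec, Matrix.zero_mulVec, hz, hz']
  | add x y hx hy ihx ihy =>
    have hx' : x ∈ env N := by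
      have : x ∈ Subalgebra.toSubmodule (env N) := by
        rw [Cfsg.Agent.Lib.Helper96.Asch.env_eq_span]; exact hx
      exact this
    have hy' : y ∈ env N := by
      have : y ∈ Subalgebra.toSubmodule (env N) := by
        rw [Cfsg.Agent.Lib.Helper96.Asch.env_eq_span]; exact hy
      exact this
    obtain ⟨x', hx1, hx2⟩ := ihx hx'
    obtain ⟨y', hy1, hy2⟩ := ihy hy'
    refine ⟨x' + y', add_mem hx1 hy1, fun u v => ?_⟩
    rw [Matrix.add_mulVec, Matrix.add_mulVec, hb.add_left, hb.add_right, hx2, hy2]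
  | smul c x hx ihx =>
    have hx' : x ∈ env N := by
      have : x ∈ Subalgebra.toSubmodule (env N) := by
        rw [Cfsg.Agent.Lib.Helper96.Asch.env_eq_span]; exact hx
      exact this
    obtain ⟨x', hx1, hx2⟩ := ihx hx'
    refine ⟨c • x', Subalgebra.smul_mem _ hx1 c, fun u v => ?_⟩
    rw [Matrix.smul_mulVec, Matrix.smul_mulVec, hb.smul_left, hb.smul_right, hx2]

/-- Z0d -/
theorem cenv_adjClosed {f : (ι → F) → (ι → F) → F} (hf : IsSymplecticForm f) {N : Subgroup (GL ι F)}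
    (hN : FixesForm (matrixSet N) f) : IsAdjointClosedFor f (cenv N) := by
  intro z hz
  have hzA : z ∈ env N := (Algebra.mem_inf.1 hz).1
  have hzC : ∀ a ∈ env N, a * z = z * a := by
    intro a ha
    exact (Subalgebra.mem_centralizer_iff F).1 (Algebra.mem_inf.1 hz).2 a ha
  obtain ⟨z', hz'A, hz'⟩ := env_adjClosed hf.bilinear hN z hzA
  refine ⟨z', Algebra.mem_inf.2 ⟨hz'A, ?_⟩, hz'⟩
  rw [Subalgebra.mem_centralizer_iff]
  intro a ha
  obtain ⟨a', ha'A, ha'⟩ := env_adjClosed hf.bilinear hN a ha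
  -- skewness: f (a' u) v = f u (a v)
  have hsk : ∀ u v, f (a' *ᵥ u) v = f u (a *ᵥ v) := by
    intro u v
    rw [hf.skew, ← ha', hf.skew u (a *ᵥ v)]
  -- f u (z' a v) = f u (a z' v)
  have key : ∀ u v, f u ((z' * a) *ᵥ v) = f u ((a * z') *ᵥ v) := by
    intro u v
    calc f u ((z' * a) *ᵥ v) = f u (z' *ᵥ (a *ᵥ v)) := by rw [Matrix.mulVec_mulVec]
      _ = f (z *ᵥ u) (a *ᵥ v) := (hz' _ _).symm
      _ = f (a' *ᵥ (z *ᵥ u)) v := (hsk _ _).symm
      _ = f ((a' * z) *ᵥ u) v := by rw [Matrix.mulVec_mulVec]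
      _ = f ((z * a') *ᵥ u) v := by rw [hzC a' ha'A]
      _ = f (z *ᵥ (a' *ᵥ u)) v := by rw [Matrix.mulVec_mulVec]
      _ = f (a' *ᵥ u) (z' *ᵥ v) := hz' _ _
      _ = f u (a *ᵥ (z' *ᵥ v)) := hsk _ _
      _ = f u ((a * z') *ᵥ v) := by rw [Matrix.mulVec_mulVec]
  have hb := hf.bilinear
  have hneg : ∀ u w : ι → F, f u (-w) = - f u w := by
    intro u w
    have := hb.smul_right (-1) u w
    simpa using this
  have hv : ∀ v, (a * z') *ᵥ v = (z' * a) *ᵥ v := by
    intro v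
    by_contra hne
    have hne' : (a * z') *ᵥ v - (z' * a) *ᵥ v ≠ 0 := sub_ne_zero.2 hne
    obtain ⟨⟨x, hx⟩, _⟩ := hf.nondegenerate _ hne'
    apply hx
    rw [sub_eq_add_neg, hb.add_right, hneg, key, add_neg_cancel]
  ext i j
  have := congrFun (hv (Pi.single j 1)) i
  simpa [Matrix.mulVec_single_one] using this

/-- Z0e -/
theorem cenv_props {H N : Subgroup (GL ι F)} (hN : Nrm H N) :
    H ≤ subalgebraNormalizer (cenv N) ∧ ∀ x ∈ cenv N, ∀ y ∈ cenv N, x * y = y * x := by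
  constructor
  · intro g hg
    exact Cfsg.Agent.Lib.Helper60.Asch.normalizer_center
      (Cfsg.Agent.Lib.Helper58.Asch.nrm_env hN hg)
  · intro x hx y hy
    exact (Subalgebra.mem_centralizer_iff F).1 (Algebra.mem_inf.1 hy).2 x (Algebra.mem_inf.1 hx).1

/-- Z0f -/
theorem prime_card_or_bot_ne_top [Fintype F] :
    (Fintype.card F).Prime ∨ (⊥ : Subfield F) ≠ ⊤ := by
  by_cases h : (⊥ : Subfield F) = ⊤
  · left
    obtain ⟨p, hp⟩ := CharP.exists F
    have hpp : Fact p.Prime := ⟨CharP.char_is_prime F p⟩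
    have h1 := Subfield.card_bot F p
    rw [h] at h1
    have h2 : Nat.card (⊤ : Subfield F) = Nat.card F :=
      Nat.card_congr (Subfield.topEquiv (K := F)).toEquiv
    rw [← Nat.card_eq_fintype_card, ← h2, h1]
    exact hpp.out
  · exact Or.inr h

/-- Z0g -/
theorem conj_mem_env {N : Subgroup (GL ι F)} (h : GL ι F) {M : Matrix ι ι F} (hM : M ∈ env N) :
    (h : Matrix ι ι F) * M * ((h⁻¹ : GL ι F) : Matrix ι ι F) ∈
      env (N.map (MulAut.conj h).toMonoidHom) := by
  have h1 : (h : Matrix ι ι F) * ((h⁻¹ : GL ι F) : Matrix ι ι F) = 1 := by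
    rw [← Units.val_mul, mul_inv_cancel, Units.val_one]
  have h2 : ((h⁻¹ : GL ι F) : Matrix ι ι F) * (h : Matrix ι ι F) = 1 := by
    rw [← Units.val_mul, inv_mul_cancel, Units.val_one]
  unfold env at hM ⊢
  induction hM using Algebra.adjoin_induction with
  | mem x hx =>
    obtain ⟨y, hy, rfl⟩ := hx
    apply Algebra.subset_adjoin
    exact ⟨h * y * h⁻¹, ⟨y, hy, by simp [MulAut.conj_apply]⟩, by simp⟩
  | algebraMap r =>
    have : (h : Matrix ι ι F) * algebraMap F (Matrix ι ι F) r * ((h⁻¹ : GL ι F) : Matrix ι ι F)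
        = algebraMap F (Matrix ι ι F) r := by
      rw [← Algebra.commutes, mul_assoc, h1, mul_one]
    rw [this]
    exact Subalgebra.algebraMap_mem _ r
  | add x y _ _ hx hy =>
    rw [mul_add, add_mul]
    exact add_mem hx hy
  | mul x y _ _ hx hy =>
    have : (h : Matrix ι ι F) * (x * y) * ((h⁻¹ : GL ι F) : Matrix ι ι F)
        = ((h : Matrix ι ι F) * x * ((h⁻¹ : GL ι F) : Matrix ι ι F)) *
          ((h : Matrix ι ι F) * y * ((h⁻¹ : GL ι F) : Matrix ι ι F)) := by
      calc (h : Matrix ι ι F) * (x * y) * ((h⁻¹ : GL ι F) : Matrix ι ι F)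
          = (h : Matrix ι ι F) * x * 1 * y * ((h⁻¹ : GL ι F) : Matrix ι ι F) := by
            simp only [mul_one, mul_assoc]
        _ = _ := by rw [← h2]; simp only [mul_assoc]
    rw [this]
    exact mul_mem hx hy

/-- Z0h -/
theorem exists_frobenius [Fintype F] :
    ∃ σ : F ≃+* F, σ (-1) = -1 ∧ ∀ a : F, σ a = a → a ∈ (⊥ : Subfield F) := by
  obtain ⟨p, hp⟩ := CharP.exists F
  have hpp : Fact p.Prime := ⟨CharP.char_is_prime F p⟩
  refine ⟨frobeniusEquiv F p, by simp, fun a ha => ?_⟩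
  rw [Subfield.mem_bot_iff_pow_eq_self F p]
  simpa [frobeniusEquiv_apply, frobenius_def] using ha

/-- Z0i -/
theorem fixes_mono {f : (ι → F) → (ι → F) → F} {H N : Subgroup (GL ι F)} (h : N ≤ H)
    (hH : FixesForm (matrixSet H) f) : FixesForm (matrixSet N) f := by
  rintro s ⟨g, hg, rfl⟩ u v
  exact hH _ ⟨g, h hg, rfl⟩ u v

/-- Z0j -/
theorem le_similarityGroup {f : (ι → F) → (ι → F) → F} {N : Subgroup (GL ι F)}
    (hN : FixesForm (matrixSet N) f) : N ≤ similarityGroup f := by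
  intro g hg
  refine ⟨1, fun u v => ?_⟩
  rw [Units.val_one, one_mul]
  exact hN _ ⟨g, hg, rfl⟩ u v

/-- Z0k -/
theorem not_scalar_of_irr (hι : 2 ≤ Fintype.card ι) {H : Subgroup (GL ι F)}
    (hirr : ActsIrreducibly (matrixSet H)) : ¬ H ≤ scalars ι F := by
  intro hs
  have hne : Nonempty ι := by
    rw [← Fintype.card_pos_iff]; omega
  obtain ⟨i⟩ := hne
  have hW := hirr (Submodule.span F {(Pi.single i 1 : ι → F)}) (by
    rintro s ⟨g, hg, rfl⟩
    obtain ⟨c, hc⟩ := (mem_scalars_iff g).1 (hs hg)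
    rw [Submodule.map_le_iff_le_comap]
    intro w hw
    rw [Submodule.mem_comap, Matrix.toLin'_apply]
    simp only
    rw [hc, Matrix.smul_mulVec, Matrix.one_mulVec]
    exact Submodule.smul_mem _ _ hw)
  rcases hW with hW | hW
  · have : (Pi.single i 1 : ι → F) ∈ (⊥ : Submodule F (ι → F)) := by
      rw [← hW]; exact Submodule.mem_span_singleton_self _
    rw [Submodule.mem_bot] at this
    have h1 := congrFun this i
    simp at h1
  · have h1 : Module.finrank F (Submodule.span F {(Pi.single i 1 : ι → F)}) ≤ 1 := by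
      rw [finrank_span_singleton]
      intro h0
      have h1 := congrFun h0 i
      simp at h1
    rw [hW, finrank_top, Module.finrank_fintype_fun_eq_card] at h1
    omega

end Cfsg.Agent.Lib.Helper1.Sp
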