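import Cfsg.Agent.Lib.Helper90.Sp.Defs
import Cfsg.Agent.Lib.Helper58.Asch.L0a
import Cfsg.Agent.Lib.Helper73.Asch.L1
import Cfsg.Agent.Lib.Helper79.Asch.L4
import Cfsg.Agent.Lib.Helper79.Asch.L5
import Cfsg.Agent.Lib.Helper35.Asch.L6

set_option autoImplicit false

namespace Cfsg.Agent.Lib.Helper1.Sp

open Cfsg Cfsg.Geo Matrix Cfsg.Agent.Lib.Helper13.Asch Cfsg.Agent.Lib.Helper90.Sp
open Cfsg.Agent.Lib.Helper58.Asch Cfsg.Agent.Lib.Helper73.Asch Cfsg.Agent.Lib.Helper79.Asch
  Cfsg.Agent.Lib.Helper35.Asch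
open scoped Kronecker MatrixGroups

variable {ι : Type} [Fintype ι] [DecidableEq ι] {F : Type*} [Field F]

/-- TS -/
theorem tensor_structure_of_normal [Fintype F] [Nonempty ι] {H N : Subgroup (GL ι F)}
    (hirr : ActsIrreducibly (matrixSet H)) (hN : Nrm H N)
    (hcentre : ∀ z ∈ env N, (∀ a ∈ env N, z * a = a * z) → ∃ c : F, z = c • 1)
    (hns : ¬ N ≤ scalars ι F) (hnt : env N ≠ ⊤) :
    ∃ (a b : ℕ) (e : ι ≃ Fin a × Fin b) (P : GL ι F), 2 ≤ a ∧ 2 ≤ b ∧
      (∀ M : Matrix ι ι F, M ∈ env N ↔ ∃ X, M = embL e P X) ∧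
      H ≤ tensorProductSubgroup a b e P := by
  classical
  obtain ⟨A, hAdef⟩ : ∃ A, A = env N := ⟨_, rfl⟩
  rw [← hAdef] at hcentre hnt
  have hA : H ≤ subalgebraNormalizer A := hAdef ▸ nrm_env hN
  have hss : SS A := ss_of_irr H hirr A hA
  obtain ⟨a, ⟨ψ⟩⟩ := exists_algEquiv_matrix A hss hcentre
  obtain ⟨b, e, P, hψ⟩ := matrix_rep_std (A.val.comp ψ.toAlgHom)
  have hmemA : ∀ x, x ∈ A ↔ ∃ X, x = embL e P X := by
    intro x
    constructor
    · intro hx
      refine ⟨ψ.symm ⟨x, hx⟩, ?_⟩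
      rw [← hψ]
      simp
    · rintro ⟨X, rfl⟩
      rw [← hψ]
      exact (ψ X).2
  have hcard : Fintype.card ι = a * b := by
    have := Fintype.card_congr e
    simpa using this
  have hpos : 0 < Fintype.card ι := Fintype.card_pos
  have ha1 : a ≠ 1 := by
    intro ha1
    subst ha1
    apply hns
    intro x hx
    have hxA : (x : Matrix ι ι F) ∈ A := by
      rw [hAdef]
      exact Algebra.subset_adjoin ⟨x, hx, rfl⟩
    obtain ⟨X, hX⟩ : ∃ X, X = ψ.symm ⟨x.1, hxA⟩ := ⟨_, rfl⟩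
    have hX1 : X = (X 0 0) • (1 : Matrix (Fin 1) (Fin 1) F) := by
      ext i j
      have hi : i = 0 := Subsingleton.elim _ _
      have hj : j = 0 := Subsingleton.elim _ _
      subst hi; subst hj
      simp
    have h1 : (⟨x.1, hxA⟩ : A) = (X 0 0) • (1 : A) := by
      have h2 := congrArg ψ hX1
      rw [map_smul, map_one, hX, AlgEquiv.apply_symm_apply, ← hX] at h2
      exact h2
    have hx1 : x.1 = (X 0 0) • (1 : Matrix ι ι F) := congrArg Subtype.val h1
    rw [mem_scalars_iff]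
    have hne0 : X 0 0 ≠ 0 := by
      intro h0
      rw [h0, zero_smul] at hx1
      exact x.ne_zero hx1
    exact ⟨Units.mk0 _ hne0, hx1⟩
  have hb1 : b ≠ 1 := by
    intro hb1
    apply hnt
    have h1 : Module.finrank F A = a * a := by
      rw [← ψ.toLinearEquiv.finrank_eq]
      simp [Module.finrank_matrix]
    have h2 : Module.finrank F (Matrix ι ι F) = Fintype.card ι * Fintype.card ι := by
      simp [Module.finrank_matrix]
    apply Algebra.toSubmodule_eq_top.1
    apply Submodule.eq_top_of_finrank_eq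
    rw [Subalgebra.finrank_toSubmodule, h1, h2, hcard, hb1]
    ring
  have ha2 : 2 ≤ a := by
    rcases Nat.lt_or_ge a 2 with h | h
    · interval_cases a
      · omega
      · omega
    · exact h
  have hb2 : 2 ≤ b := by
    rcases Nat.lt_or_ge b 2 with h | h
    · interval_cases b
      · omega
      · omega
    · exact h
  refine ⟨a, b, e, P, ha2, hb2, ?_, ?_⟩
  · intro M
    rw [← hAdef]
    exact hmemA M
  · intro h hh
    apply mem_tensorProductSubgroup
    intro X
    have h1 : embL e P X ∈ A := (hmemA _).2 ⟨X, rfl⟩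
    have h2 := (hA hh _).1 h1
    exact (hmemA _).1 h2

end Cfsg.Agent.Lib.Helper1.Sp
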